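import Cfsg.Agent.Lib.Helper58.QSim.Defs

/-!
# Project QSim (S5981): the multiplier of a similarity of finite order
-/

set_option autoImplicit false
open scoped MatrixGroups Matrix

namespace Cfsg.Agent.Lib.Helper64.QSim

open Cfsg.Agent.Lib.Helper58.QSim

universe u

variable {F : Type u} [Field F] {n : ℕ} {Q : (Fin n → F) → F}

theorem exists_ne_zero (hQ : Cfsg.Geo.IsNondegenerateQuadraticForm Q) (hn : 1 ≤ n) :
    ∃ v, Q v ≠ 0 := by
  by_contra hcon
  push Not at hcon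
  have hv0 : (fun _ : Fin n => (1 : F)) ≠ 0 := by
    intro h
    have h1 := congrFun h ⟨0, hn⟩
    simp at h1
  obtain ⟨⟨x, hx⟩, -⟩ := hQ.nondegenerate _ hv0
  apply hx
  simp [QuadraticMap.polar, hcon]

theorem mult_pow (y : GL (Fin n) F) (c : Fˣ)
    (hc : ∀ v, Q ((y : Matrix (Fin n) (Fin n) F) *ᵥ v) = (c : F) * Q v) (k : ℕ) :
    ∀ v, Q (((y ^ k : GL (Fin n) F) : Matrix (Fin n) (Fin n) F) *ᵥ v) = (c : F) ^ k * Q v := by
  induction k with
  | zero => intro v; simp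
  | succ k ih =>
    intro v
    rw [pow_succ', Units.val_mul, ← Matrix.mulVec_mulVec, hc, ih, pow_succ]
    ring

theorem mult_pow_eq_one (hQ : Cfsg.Geo.IsNondegenerateQuadraticForm Q) (hn : 1 ≤ n)
    (y : GL (Fin n) F) (c : Fˣ)
    (hc : ∀ v, Q ((y : Matrix (Fin n) (Fin n) F) *ᵥ v) = (c : F) * Q v) (r : ℕ)
    (hyr : y ^ r = 1) : (c : F) ^ r = 1 := by
  obtain ⟨v, hv⟩ := exists_ne_zero hQ hn
  have h1 := mult_pow y c hc r v
  rw [hyr] at h1
  simp only [Units.val_one, Matrix.one_mulVec] at h1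
  have h2 : ((c : F) ^ r - 1) * Q v = 0 := by rw [sub_mul, one_mul, ← h1, sub_self]
  rcases mul_eq_zero.mp h2 with h | h
  · exact sub_eq_zero.mp h
  · exact absurd h hv

end Cfsg.Agent.Lib.Helper64.QSim
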