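import Cfsg.Agent.Lib.Helper58.QSim.Defs

/-!
# Project QSim (S5981), package [CARD]
-/

set_option autoImplicit false
open scoped MatrixGroups Matrix

namespace Cfsg.Agent.Lib.Helper64.QSim

open Cfsg.Agent.Lib.Helper58.QSim

universe u

theorem pkgCard : PkgCard.{u} := by
  intro F _ _ n r K hr hrq hn hdiv
  have h1 : r ∣ Nat.card (GL (Fin n) F) :=
    (hdiv.trans (Subgroup.relIndex_dvd_card _ _)).trans (Subgroup.card_subgroup_dvd_card _)
  rw [Matrix.card_GL_field] at h1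
  obtain ⟨j, -, hj⟩ := (Prime.dvd_finsetProd_iff (Nat.Prime.prime hr) _).1 h1
  have hjn : (j : ℕ) < n := j.isLt
  have e : Fintype.card F ^ n - Fintype.card F ^ (j : ℕ) =
      Fintype.card F ^ (j : ℕ) * (Fintype.card F ^ (n - j) - 1) := by
    rw [Nat.mul_sub, mul_one, ← pow_add, Nat.add_sub_cancel' hjn.le]
  rw [e] at hj
  have h2 : r ∣ Fintype.card F ^ (n - j) - 1 := by
    rcases (Nat.Prime.dvd_mul hr).1 hj with h | h
    · exact absurd (hr.dvd_of_dvd_pow h) hrq
    · exact h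
  have hq1 : 1 ≤ Fintype.card F ^ (n - j) := Nat.one_le_pow _ _ Fintype.card_pos
  have h3 : ((Fintype.card F : ℕ) : ZMod r) ^ (n - j) = 1 := by
    have h4 : ((Fintype.card F ^ (n - j) - 1 : ℕ) : ZMod r) = 0 :=
      (ZMod.natCast_eq_zero_iff _ _).2 h2
    rw [Nat.cast_sub hq1, Nat.cast_pow, Nat.cast_one, sub_eq_zero] at h4
    exact h4
  have h5 := orderOf_dvd_of_pow_eq_one h3
  exact (Nat.le_of_dvd (by omega) h5).trans (Nat.sub_le _ _)

end Cfsg.Agent.Lib.Helper64.QSim
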