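import Cfsg.Agent.Lib.Helper64.QSim.Basic

/-!
# Project QSim (S5981), package [MU]
-/

set_option autoImplicit false
open scoped MatrixGroups Matrix

namespace Cfsg.Agent.Lib.Helper64.QSim

open Cfsg.Agent.Lib.Helper58.QSim

universe u

theorem pkgMu : PkgMu.{u} := by
  intro F _ _ n r Q y hr hrq hQ hn hy hyr
  classical
  obtain ⟨c, hc⟩ := hy
  have hcr : (c : F) ^ r = 1 := mult_pow_eq_one hQ hn y c hc r hyr
  have hcr' : c ^ r = 1 := Units.ext (by rw [Units.val_pow_eq_pow_val, hcr]; rfl)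
  have hcq : c ^ (Fintype.card F - 1) = 1 := by
    rw [← Fintype.card_units]
    exact pow_card_eq_one
  have hord1 : orderOf c ∣ r := orderOf_dvd_of_pow_eq_one hcr'
  have hord2 : orderOf c ∣ Fintype.card F - 1 := orderOf_dvd_of_pow_eq_one hcq
  have hcop : Nat.Coprime r (Fintype.card F - 1) := (Nat.Prime.coprime_iff_not_dvd hr).2 hrq
  have hord : orderOf c = 1 := Nat.eq_one_of_dvd_coprimes hcop hord1 hord2
  have hc1 : c = 1 := orderOf_eq_one_iff.mp hord
  intro w
  rw [hc, hc1, Units.val_one, one_mul]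

end Cfsg.Agent.Lib.Helper64.QSim
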