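import Cfsg.Agent.Lib.Helper64.QSim.Basic

/-!
# Project QSim (S5981), package [P]: a transvection is not conjugate into the similarity group
-/

set_option autoImplicit false
open scoped MatrixGroups Matrix

namespace Cfsg.Agent.Lib.Helper64.QSim

open Cfsg.Agent.Lib.Helper58.QSim

universe u

theorem pkgP : PkgP.{u} := by
  intro F _ _ p _ _ n Q hp2 hn hQ
  obtain ⟨i0, i1, hi01⟩ : ∃ i0 i1 : Fin n, i0 ≠ i1 :=
    ⟨⟨0, by omega⟩, ⟨1, by omega⟩, by simp [Fin.ext_iff]⟩
  obtain ⟨x, hxval⟩ : ∃ x : GL (Fin n) F,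
      (x : Matrix (Fin n) (Fin n) F) = Matrix.transvection i0 i1 1 :=
    ⟨⟨Matrix.transvection i0 i1 1, Matrix.transvection i0 i1 (-1), by
      rw [Matrix.transvection_mul_transvection_same _ _ hi01, add_neg_cancel,
        Matrix.transvection_zero], by
      rw [Matrix.transvection_mul_transvection_same _ _ hi01, neg_add_cancel,
        Matrix.transvection_zero]⟩, rfl⟩
  have hxpow : ∀ k : ℕ, ((x ^ k : GL (Fin n) F) : Matrix (Fin n) (Fin n) F) =
      Matrix.transvection i0 i1 (k : F) := by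
    intro k
    induction k with
    | zero => simp
    | succ k ih =>
      rw [pow_succ, Units.val_mul, ih, hxval, Matrix.transvection_mul_transvection_same _ _ hi01,
        Nat.cast_succ]
  have hxp : x ^ p = 1 := by
    apply Units.ext
    rw [hxpow, CharP.cast_eq_zero, Matrix.transvection_zero]
    rfl
  have hmulVec : ∀ w : Fin n → F, (x : Matrix (Fin n) (Fin n) F) *ᵥ w =
      w + w i1 • Pi.single i0 (1 : F) := by
    intro w
    rw [hxval, Matrix.transvection, Matrix.add_mulVec, Matrix.one_mulVec, Matrix.single_mulVec]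
    congr 1
    ext k
    by_cases hk : k = i0
    · subst hk
      simp
    · simp [Function.update, hk]
  refine ⟨x, ?_, ?_⟩
  · unfold Elt
    refine ⟨?_, ⟨1, ?_⟩, ?_⟩
    · show x ∈ (Matrix.GeneralLinearGroup.det : GL (Fin n) F →* Fˣ).ker
      rw [MonoidHom.mem_ker]
      apply Units.ext
      rw [Matrix.GeneralLinearGroup.val_det_apply, hxval,
        Matrix.det_transvection_of_ne _ _ hi01]
      rfl
    · rw [hxp, one_smul]
      rfl
    · intro z hz
      have h1 := congrFun (congrFun hz i0) i1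
      rw [hxval] at h1
      simp [Matrix.transvection, hi01] at h1
  · rintro ⟨g, -, c, hc⟩
    have hyp : (g⁻¹ * x * g) ^ p = 1 := by
      have h1 : g⁻¹ * x * g = g⁻¹ * x * (g⁻¹)⁻¹ := by rw [inv_inv]
      rw [h1, conj_pow, hxp, mul_one, mul_inv_cancel]
    have hcp : (c : F) ^ p = 1 := mult_pow_eq_one hQ (by omega) (g⁻¹ * x * g) c hc p hyp
    have hc1 : (c : F) = 1 := by
      have h1 : frobenius F p (c : F) = frobenius F p 1 := by
        rw [frobenius_def, frobenius_def, hcp, one_pow]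
      exact frobenius_inj F p h1
    have hgg : ∀ w : Fin n → F, (g : Matrix (Fin n) (Fin n) F) *ᵥ
        (((g⁻¹ : GL (Fin n) F) : Matrix (Fin n) (Fin n) F) *ᵥ w) = w := by
      intro w
      rw [Matrix.mulVec_mulVec, ← Units.val_mul, mul_inv_cancel, Units.val_one,
        Matrix.one_mulVec]
    obtain ⟨v₀, hv₀⟩ : ∃ v₀ : Fin n → F,
        v₀ = ((g⁻¹ : GL (Fin n) F) : Matrix (Fin n) (Fin n) F) *ᵥ Pi.single i0 (1 : F) :=
      ⟨_, rfl⟩
    obtain ⟨φ, hφ⟩ : ∃ φ : (Fin n → F) → F,
        ∀ u, φ u = ((g : Matrix (Fin n) (Fin n) F) *ᵥ u) i1 := ⟨_, fun _ => rfl⟩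
    have hyu : ∀ u, ((g⁻¹ * x * g : GL (Fin n) F) : Matrix (Fin n) (Fin n) F) *ᵥ u =
        u + φ u • v₀ := by
      intro u
      rw [Units.val_mul, Units.val_mul, ← Matrix.mulVec_mulVec, ← Matrix.mulVec_mulVec, hmulVec,
        Matrix.mulVec_add, Matrix.mulVec_smul, Matrix.mulVec_mulVec, ← Units.val_mul,
        inv_mul_cancel, Units.val_one, Matrix.one_mulVec, hφ, hv₀]
    have hiso : ∀ u, Q (u + φ u • v₀) = Q u := by
      intro u
      rw [← hyu, hc, hc1, one_mul]
    have hB := hQ.polar_bilinear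
    have hexp : ∀ (u : Fin n → F) (a : F),
        Q (u + a • v₀) = Q u + a * QuadraticMap.polar Q u v₀ + a ^ 2 * Q v₀ := by
      intro u a
      have h1 : QuadraticMap.polar Q u (a • v₀) = Q (u + a • v₀) - Q u - Q (a • v₀) := rfl
      rw [hB.smul_right, hQ.smul] at h1
      linear_combination -h1
    have hstar : ∀ u, φ u * (QuadraticMap.polar Q u v₀ + φ u * Q v₀) = 0 := by
      intro u
      have h1 := hiso u
      rw [hexp] at h1
      linear_combination h1
    have hφadd : ∀ u u', φ (u + u') = φ u + φ u' := by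
      intro u u'
      rw [hφ, hφ, hφ, Matrix.mulVec_add]
      rfl
    have hφv₀ : φ v₀ = 0 := by
      rw [hφ, hv₀, hgg, Pi.single_apply, if_neg hi01.symm]
    obtain ⟨u₁, hu₁⟩ : ∃ u₁, φ u₁ = 1 := by
      refine ⟨((g⁻¹ : GL (Fin n) F) : Matrix (Fin n) (Fin n) F) *ᵥ Pi.single i1 (1 : F), ?_⟩
      rw [hφ, hgg, Pi.single_eq_same]
    have hv₀ne : v₀ ≠ 0 := by
      intro h
      have h1 := hgg (Pi.single i0 (1 : F))
      rw [← hv₀, h, Matrix.mulVec_zero] at h1
      have h2 := congrFun h1 i0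
      simp at h2
    have h1' := hstar u₁
    rw [hu₁, one_mul, one_mul] at h1'
    have hkey : ∀ u, QuadraticMap.polar Q u v₀ = - φ u * Q v₀ := by
      intro u
      by_cases ha : φ u = 0
      · have h2 := hstar (u + u₁)
        rw [hφadd, ha, hu₁, zero_add, one_mul, one_mul, hB.add_left] at h2
        rw [ha]
        linear_combination h2 - h1'
      · have h2 := hstar u
        rcases mul_eq_zero.mp h2 with h | h
        · exact absurd h ha
        · linear_combination h
    have h2F : (2 : F) ≠ 0 := by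
      intro h
      have h3 : ((2 : ℕ) : F) = 0 := by exact_mod_cast h
      rw [CharP.cast_eq_zero_iff F p 2] at h3
      exact hp2 ((Nat.prime_dvd_prime_iff_eq Fact.out Nat.prime_two).1 h3)
    have hQv₀ : Q v₀ = 0 := by
      have h3 := hkey v₀
      rw [hφv₀] at h3
      have h4 : QuadraticMap.polar Q v₀ v₀ = Q (v₀ + v₀) - Q v₀ - Q v₀ := rfl
      have h5 : v₀ + v₀ = (2 : F) • v₀ := (two_smul F v₀).symm
      rw [h5, hQ.smul] at h4
      have h6 : 2 * Q v₀ = 0 := by linear_combination h3 - h4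
      rcases mul_eq_zero.mp h6 with h | h
      · exact absurd h h2F
      · exact h
    obtain ⟨⟨w, hw⟩, -⟩ := hQ.nondegenerate v₀ hv₀ne
    apply hw
    rw [hkey, hQv₀, mul_zero]

end Cfsg.Agent.Lib.Helper64.QSim
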